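import Cfsg.Agent.Lib.Helper11.Fi24e2.Top

set_option autoImplicit false
set_option maxRecDepth 100000

namespace Cfsg.Agent.Lib.Helper11.Fi24e2

set_option maxHeartbeats 0
theorem b0 : allR (guardB 261 (blk fc sc rt.get INV isH)) 7 0 = true := by decide +kernel
theorem b1 : allR (guardB 261 (blk fc sc rt.get INV isH)) 7 128 = true := by decide +kernel
theorem b2 : allR (guardB 261 (blk fc sc rt.get INV isH)) 7 256 = true := by decide +kernel
theorem b3 : allR (guardB 261 (blk fc sc rt.get INV isH)) 7 384 = true := by decide +kernel
theorem c0 : allR (guardB 99 (cblk fc nc cc 66816 3159 11090678776483259438313656736572334813745748301503266300681918322458485231222502492159897624416558312389564843845614287315896631296 gens)) 6 0 = true := by decide +kernel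
theorem c1 : allR (guardB 99 (cblk fc nc cc 66816 3159 11090678776483259438313656736572334813745748301503266300681918322458485231222502492159897624416558312389564843845614287315896631296 gens)) 6 64 = true := by decide +kernel

end Cfsg.Agent.Lib.Helper11.Fi24e2
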