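import Cfsg.Agent.Lib.Helper11.Fi24e2.All
import Cfsg.Agent.Lib.Helper11.Rel
import Cfsg.Prelude.Def_Spor_Fi24
import Cfsg.Agent.Lib.Helper11.Rel2
import Cfsg.Agent.Lib.Helper11.Fi24Spider

set_option autoImplicit false
set_option maxRecDepth 100000

namespace Cfsg.Agent.Lib.Helper11.Fi24e2

open Cfsg.Spor Cfsg.Spor.Fi24

def LTF : List (FreeGroup Gen) := [1, l, b, c, d, e, f, g, h, i]
def code : Gen → ℕ
  | .l => 1 | .k => 0 | .a => 0 | .b => 2 | .c => 3 | .d => 4 | .e => 5 | .f => 6 | .g => 7 | .j => 0 | .h => 8 | .i => 9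
def nodes : List Gen := [.l, .b, .c, .d, .e, .f, .g, .h, .i]
def extraE : List WExp := [.pow (.mul (.mul (.mul (.mul (.mul (.mul (.mul (.mul (.l 4) (.l 3)) (.l 2)) (.l 4)) (.l 5)) (.l 6)) (.l 4)) (.l 8)) (.l 9)) 10]
def hE : List (WExp × ℕ) := []

theorem rtok : rt.ok (baseWords edges code nodes INV 9 extraE hE) = true := by decide +kernel

theorem invol (x : Gen) (hx : x ∈ coxNodes edges) :
    (PresentedGroup.mk (coxRelators edges ∪ {r | r ∈ extra})) (FreeGroup.of x) =
      ((PresentedGroup.mk (coxRelators edges ∪ {r | r ∈ extra})) (FreeGroup.of x))⁻¹ := by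
  have h := cox_rel edges extra x x hx hx
  have h1 : coxLabel edges x x = 1 := by simp [coxLabel]
  rw [h1, pow_one] at h
  exact eq_inv_of_mul_eq_one_left h

theorem hone : (PresentedGroup.mk (coxRelators edges ∪ {r | r ∈ extra})) 1 =
    ((PresentedGroup.mk (coxRelators edges ∪ {r | r ∈ extra})) 1)⁻¹ := by simp

theorem hii (x : FreeGroup Gen) : (PresentedGroup.mk (coxRelators edges ∪ {r | r ∈ extra})) x =
    ((PresentedGroup.mk (coxRelators edges ∪ {r | r ∈ extra})) x⁻¹)⁻¹ := by rw [map_inv, inv_inv]

theorem hinv32 : ∀ l < 32, (PresentedGroup.mk (coxRelators edges ∪ {r | r ∈ extra}))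
        (LTF.getD (invL INV l) 1) =
      ((PresentedGroup.mk (coxRelators edges ∪ {r | r ∈ extra})) (LTF.getD l 1))⁻¹ := by
  intro l hl
  interval_cases l
  · exact hone
  · exact invol _ (by decide)
  · exact invol _ (by decide)
  · exact invol _ (by decide)
  · exact invol _ (by decide)
  · exact invol _ (by decide)
  · exact invol _ (by decide)
  · exact invol _ (by decide)
  · exact invol _ (by decide)
  · exact invol _ (by decide)
  · exact hone
  · exact hone
  · exact hone
  · exact hone
  · exact hone
  · exact hone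
  · exact hone
  · exact hone
  · exact hone
  · exact hone
  · exact hone
  · exact hone
  · exact hone
  · exact hone
  · exact hone
  · exact hone
  · exact hone
  · exact hone
  · exact hone
  · exact hone
  · exact hone
  · exact hone

theorem upper : ((Subgroup.closure ({b, c, d, e, f, g, h, l} : Set (FreeGroup Gen))).map
      (PresentedGroup.mk (coxRelators edges ∪ {r | r ∈ extra}))).relIndex
      ((Subgroup.closure ({b, c, d, e, f, g, h, i, l} : Set (FreeGroup Gen))).map
      (PresentedGroup.mk (coxRelators edges ∪ {r | r ∈ extra}))) ≠ 0 ∧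
    ((Subgroup.closure ({b, c, d, e, f, g, h, l} : Set (FreeGroup Gen))).map
      (PresentedGroup.mk (coxRelators edges ∪ {r | r ∈ extra}))).relIndex
      ((Subgroup.closure ({b, c, d, e, f, g, h, i, l} : Set (FreeGroup Gen))).map
      (PresentedGroup.mk (coxRelators edges ∪ {r | r ∈ extra}))) ≤ 3159 := by
  apply cox_relIndex_le' edges extra _ _ LTF code nodes INV 9 extraE hE rt fc sc nc cc isH gens
    261 99 3159 _ rfl (by decide) (by decide +kernel) hinv32 (by decide) _ _ _ _ _ _ rtok
    (by norm_num) (by norm_num) hN0 (by decide) chkAll clAll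
  · intro x hx
    simp only [nodes, List.mem_cons, List.mem_nil_iff, or_false] at hx
    rcases hx with rfl | rfl | rfl | rfl | rfl | rfl | rfl | rfl | rfl <;> rfl
  · intro e he
    simp only [extraE, List.mem_cons, List.mem_nil_iff, or_false] at he
    rcases he with rfl
    · exact Cfsg.Agent.Lib.Helper11.Fi24S.spider
  · intro p hp
    have : hE.map (fun p => LTF.getD p.2 1) = hE.map (fun p => p.1.eval (fun l => LTF.getD l 1)) := rfl
    exact List.map_inj_left.1 this p hp
  · intro l
    by_cases hl : l < 10
    · interval_cases l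
      · exact Subgroup.one_mem _
      · exact Subgroup.subset_closure (by simp [LTF])
      · exact Subgroup.subset_closure (by simp [LTF])
      · exact Subgroup.subset_closure (by simp [LTF])
      · exact Subgroup.subset_closure (by simp [LTF])
      · exact Subgroup.subset_closure (by simp [LTF])
      · exact Subgroup.subset_closure (by simp [LTF])
      · exact Subgroup.subset_closure (by simp [LTF])
      · exact Subgroup.subset_closure (by simp [LTF])
      · exact Subgroup.subset_closure (by simp [LTF])
    · rw [List.getD_eq_default _ _ (by simp only [LTF, List.length_cons, List.length_nil]; omega)]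
      exact Subgroup.one_mem _
  · intro s hs
    simp only [Set.mem_insert_iff, Set.mem_singleton_iff] at hs
    rcases hs with rfl | rfl | rfl | rfl | rfl | rfl | rfl | rfl | rfl
    · exact ⟨2, by decide, rfl⟩
    · exact ⟨3, by decide, rfl⟩
    · exact ⟨4, by decide, rfl⟩
    · exact ⟨5, by decide, rfl⟩
    · exact ⟨6, by decide, rfl⟩
    · exact ⟨7, by decide, rfl⟩
    · exact ⟨8, by decide, rfl⟩
    · exact ⟨9, by decide, rfl⟩
    · exact ⟨1, by decide, rfl⟩
  · intro l hl
    simp only [isH, decide_eq_true_eq, List.mem_cons, List.mem_nil_iff, or_false] at hl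
    rcases hl with rfl | rfl | rfl | rfl | rfl | rfl | rfl | rfl <;>
      exact Subgroup.subset_closure (by simp [LTF])


end Cfsg.Agent.Lib.Helper11.Fi24e2
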